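import Mathlib
import Cfsg.Agent.Chevalley.Formula

/-!
Simply laced tabulated systems: the integer inner product of roots, and the facts on pairs of
roots used for lifting Steinberg's relations, reduced to a check at the highest root.
-/

set_option autoImplicit false

namespace CfsgLib.ChevUniversal

open Cfsg.Lie CfsgLib.Chevalley

variable (D : ChevalleyDatum)

/-- The inner product attached to a coefficient function. -/
def ipV (V : ℕ → ℕ → ℤ) (r s : ℕ) : ℤ :=
  ((List.range D.rank).map fun j => V j r * D.cartan j s).sum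

/-- Check of the facts for the pair `(r, s)` with suggested witnesses `a`. -/
def chkPair (V : ℕ → ℕ → ℤ) (r s a : ℕ) : Bool :=
  let i := ipV D V r s
  decide (-2 ≤ i) && decide (i ≤ 2) && (decide (i ≠ 2) || decide (s = r)) &&
    (decide (i ≠ -2) || decide (s = D.neg r)) &&
    decide (a < D.nroots) &&
    if i = -1 then
      decide (ipV D V a r = 1) && decide (ipV D V a s = -1) &&
      match D.commTerms r s with
      | [(k, C, 1, 1)] => decide (k < D.nroots) && decide (C = 1 ∨ C = -1) &&
          (List.range D.rank).all fun j => decide (V j k = V j r + V j s)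
      | _ => false
    else if i < 0 then true
    else decide (ipV D V a r = 1) && decide (0 ≤ ipV D V a s) && decide (ipV D V a s ≤ i) &&
      (decide (s = r) || decide (D.commTerms r s = []))

/-- Check of a datum: symmetric Cartan matrix, facts at the highest root. -/
def chkSimply (V : ℕ → ℕ → ℤ) (tops wit : List ℕ) : Bool :=
  ((List.range D.rank).all fun i => (List.range D.rank).all fun j =>
    decide (D.cartan i (D.simple j) = D.cartan j (D.simple i))) &&
  ((List.range D.rank).all fun i => decide (D.cartan i (D.simple i) = 2)) &&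
  tops.all fun r => decide (ipV D V r r = 2) &&
    (List.range D.nroots).all fun s => chkPair D V r s (wit.getD s 0)

variable {D}
variable (S : Sys D)

/-- The inner product of two roots. -/
def ip (r s : ℕ) : ℤ := ipV D S.vec r s

/-- `k` is the root `r + s`. -/
def IsSum (r s k : ℕ) : Prop := k < D.nroots ∧ ∀ j < D.rank, S.vec j k = S.vec j r + S.vec j s

/-- What is used about a pair of roots. -/
structure PairFacts (r s : ℕ) : Prop where
  self : ip S r r = 2
  ge : -2 ≤ ip S r s
  le : ip S r s ≤ 2
  eq_two : ip S r s = 2 → s = r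
  eq_neg_two : ip S r s = -2 → s = D.neg r
  sum : ip S r s = -1 → ∃ k C, IsSum S r s k ∧ D.commTerms r s = [(k, C, 1, 1)] ∧ (C = 1 ∨ C = -1)
  shift : ip S r s = -1 → ∃ d < D.nroots, ip S d r = 1 ∧ ip S d s = -1
  comm : 0 ≤ ip S r s → s ≠ r → D.commTerms r s = []
  split : 0 ≤ ip S r s → ∃ a < D.nroots, ip S a r = 1 ∧ 0 ≤ ip S a s ∧ ip S a s ≤ ip S r s

/-- A simply laced system. -/
structure Simply : Prop where
  symm_cartan : ∀ i < D.rank, ∀ j < D.rank, D.cartan i (D.simple j) = D.cartan j (D.simple i)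
  cartan_self : ∀ i < D.rank, D.cartan i (D.simple i) = 2
  pair : ∀ r < D.nroots, ∀ s < D.nroots, PairFacts S r s

theorem ip_eq_sum (r s : ℕ) : ip S r s = ∑ j ∈ Finset.range D.rank, S.vec j r * D.cartan j s :=
  (List.sum_toFinset _ List.nodup_range).symm.trans (by rw [List.toFinset_range])

theorem cartan_eq_sum {i s : ℕ} (hi : i < D.rank) (hs : s < D.nroots) :
    D.cartan i s = ∑ m ∈ Finset.range D.rank, S.vec m s * D.cartan i (D.simple m) := by
  rw [S.cartan_vec i hi s hs, ← List.sum_toFinset _ List.nodup_range, List.toFinset_range]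

theorem ip_eq_double {r s : ℕ} (hs : s < D.nroots) : ip S r s =
    ∑ j ∈ Finset.range D.rank, ∑ m ∈ Finset.range D.rank,
      S.vec j r * S.vec m s * D.cartan j (D.simple m) := by
  rw [ip_eq_sum]
  refine Finset.sum_congr rfl fun j hj => ?_
  rw [cartan_eq_sum S (Finset.mem_range.1 hj) hs, Finset.mul_sum]
  exact Finset.sum_congr rfl fun m _ => by ring

theorem ip_symm (hA : ∀ i < D.rank, ∀ j < D.rank, D.cartan i (D.simple j) = D.cartan j (D.simple i))
    {r s : ℕ} (hr : r < D.nroots) (hs : s < D.nroots) : ip S r s = ip S s r := by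
  rw [ip_eq_double S hs, ip_eq_double S hr, Finset.sum_comm]
  refine Finset.sum_congr rfl fun j hj => Finset.sum_congr rfl fun m hm => ?_
  rw [hA m (Finset.mem_range.1 hm) j (Finset.mem_range.1 hj)]
  ring

theorem ip_add_left {a b k : ℕ} (h : IsSum S a b k) (s : ℕ) : ip S k s = ip S a s + ip S b s := by
  simp only [ip_eq_sum, ← Finset.sum_add_distrib]
  exact Finset.sum_congr rfl fun j hj => by rw [h.2 j (Finset.mem_range.1 hj)]; ring

theorem ip_neg_left {r : ℕ} (hr : r < D.nroots) (s : ℕ) : ip S (D.neg r) s = -ip S r s := by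
  simp only [ip_eq_sum, ← Finset.sum_neg_distrib]
  exact Finset.sum_congr rfl fun j hj => by rw [S.vec_neg j (Finset.mem_range.1 hj) r hr]; ring

section Reflect

variable (hA : ∀ i < D.rank, ∀ j < D.rank, D.cartan i (D.simple j) = D.cartan j (D.simple i))
  (h2 : ∀ i < D.rank, D.cartan i (D.simple i) = 2)
include hA h2

theorem ip_reflect {i r s : ℕ} (hi : i < D.rank) (hr : r < D.nroots) (hs : s < D.nroots) :
    ip S (D.reflectRoot i r) (D.reflectRoot i s) = ip S r s := by
  have hws := S.w_lt i hi s hs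
  have key : ∀ t, t < D.nroots → ∀ u,
      ip S (D.reflectRoot i t) u = ip S t u - D.cartan i t * D.cartan i u := by
    intro t ht u
    simp only [ip_eq_sum]
    rw [Finset.sum_congr rfl fun j hj => by rw [S.vec_w i hi t ht j (Finset.mem_range.1 hj)]]
    simp only [sub_mul, Finset.sum_sub_distrib, ite_mul, zero_mul, Finset.sum_ite_eq',
      Finset.mem_range, hi, if_true]
  have hcw : D.cartan i (D.reflectRoot i s) = -D.cartan i s := by
    rw [cartan_eq_sum S hi hws,
      Finset.sum_congr rfl fun j hj => by rw [S.vec_w i hi s hs j (Finset.mem_range.1 hj)]]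
    simp only [sub_mul, Finset.sum_sub_distrib, ite_mul, zero_mul, Finset.sum_ite_eq',
      Finset.mem_range, hi, if_true, ← cartan_eq_sum S hi hs, h2 i hi]
    ring
  rw [key r hr, ip_symm S hA hr hws, key s hs, ip_symm S hA hr hs, hcw]
  ring

theorem pairFacts_of_reflect {i r : ℕ} (hi : i < D.rank) (hr : r < D.nroots)
    (h : ∀ s < D.nroots, PairFacts S (D.reflectRoot i r) s) {s : ℕ} (hs : s < D.nroots) :
    PairFacts S r s := by
  have hws := S.w_lt i hi s hs
  have P := h _ hws
  have e := ip_reflect S hA h2 hi hr hs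
  have inj : ∀ {a b : ℕ}, a < D.nroots → b < D.nroots →
      D.reflectRoot i a = D.reflectRoot i b → a = b := fun ha hb => S.w_inj hi ha hb
  constructor
  · rw [← ip_reflect S hA h2 hi hr hr]; exact P.self
  · rw [← e]; exact P.ge
  · rw [← e]; exact P.le
  · intro h'; exact inj hs hr (P.eq_two (e.trans h'))
  · intro h'
    refine inj hs (S.wf.neg_lt r hr) ?_
    rw [S.w_neg i hi r hr]
    exact P.eq_neg_two (e.trans h')
  · intro h'
    obtain ⟨k, C, hk, hc, hC⟩ := P.sum (e.trans h')
    rw [S.commTerms_w hi hr hs] at hc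
    obtain ⟨c, hc1, hc2⟩ := List.map_eq_singleton_iff.1 hc
    obtain ⟨k', C', i', j'⟩ := c
    simp only [Prod.mk.injEq] at hc2
    obtain ⟨rfl, hCC, rfl, rfl⟩ := hc2
    have hk' : k' < D.nroots := S.commTerms_lt hr hs (by rw [hc1]; simp : (k', C', 1, 1) ∈ _)
    refine ⟨k', C', ⟨hk', ?_⟩, hc1, ?_⟩
    · have hcart : D.cartan i k' = D.cartan i r + D.cartan i s := by
        have e1 : ∀ t < D.nroots, D.cartan i (D.reflectRoot i t) = -D.cartan i t := fun t ht => by
          rw [cartan_eq_sum S hi (S.w_lt i hi t ht),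
            Finset.sum_congr rfl fun j hj => by rw [S.vec_w i hi t ht j (Finset.mem_range.1 hj)]]
          simp only [sub_mul, Finset.sum_sub_distrib, ite_mul, zero_mul, Finset.sum_ite_eq',
            Finset.mem_range, hi, if_true, ← cartan_eq_sum S hi ht, h2 i hi]
          ring
        have e2 : D.cartan i (D.reflectRoot i k') =
            D.cartan i (D.reflectRoot i r) + D.cartan i (D.reflectRoot i s) := by
          rw [cartan_eq_sum S hi hk.1, cartan_eq_sum S hi (S.w_lt i hi r hr),
            cartan_eq_sum S hi hws, ← Finset.sum_add_distrib]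
          exact Finset.sum_congr rfl fun j hj => by rw [hk.2 j (Finset.mem_range.1 hj)]; ring
        rw [e1 _ hk', e1 _ hr, e1 _ hs] at e2
        linarith
      intro j hj
      have := hk.2 j hj
      rw [S.vec_w i hi _ hk' j hj, S.vec_w i hi _ hr j hj, S.vec_w i hi _ hs j hj] at this
      split_ifs at this with hji <;> linarith
    · rcases S.eta_sign i hi k' hk' with e1 | e1 <;> rcases S.eta_sign i hi r hr with e3 | e3 <;>
        rcases S.eta_sign i hi s hs with e4 | e4 <;> simp [e1, e3, e4] at hCC <;> omega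
  · intro h'
    obtain ⟨d, hd, h3, h4⟩ := P.shift (e.trans h')
    refine ⟨D.reflectRoot i d, S.w_lt i hi d hd, ?_, ?_⟩
    · rw [← ip_reflect S hA h2 hi (S.w_lt i hi d hd) hr, S.w_w i hi d hd, h3]
    · rw [← ip_reflect S hA h2 hi (S.w_lt i hi d hd) hs, S.w_w i hi d hd, h4]
  · intro h' hne
    have := P.comm (e ▸ h') (fun e' => hne (inj hs hr e'))
    rw [S.commTerms_w hi hr hs] at this
    simpa using this
  · intro h'
    obtain ⟨d, hd, h3, h4, h5⟩ := P.split (e ▸ h')
    refine ⟨D.reflectRoot i d, S.w_lt i hi d hd, ?_, ?_, ?_⟩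
    · rw [← ip_reflect S hA h2 hi (S.w_lt i hi d hd) hr, S.w_w i hi d hd, h3]
    · rw [← ip_reflect S hA h2 hi (S.w_lt i hi d hd) hs, S.w_w i hi d hd]; exact h4
    · rw [← ip_reflect S hA h2 hi (S.w_lt i hi d hd) hs, S.w_w i hi d hd, ← e]; exact h5

end Reflect

/-- The check at the highest root gives all the facts. -/
theorem simply_of_chk {wit : List ℕ} (h : chkSimply D S.vec S.tops wit = true) : Simply S := by
  simp only [chkSimply, Bool.and_eq_true, List.all_eq_true, List.mem_range, decide_eq_true_eq] at h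
  obtain ⟨⟨hA, h2⟩, htop⟩ := h
  refine ⟨hA, h2, S.top_induction (P := fun r => ∀ s < D.nroots, PairFacts S r s) ?_ fun i hi r hr ih s hs =>
    pairFacts_of_reflect S hA h2 hi hr ih hs⟩
  intro r hr s hs
  obtain ⟨hself, hp⟩ := htop r hr
  have hc := hp s hs
  rw [chkPair] at hc
  simp only [Bool.and_eq_true, Bool.or_eq_true, decide_eq_true_eq] at hc
  obtain ⟨⟨⟨⟨⟨hge, hle⟩, heq2⟩, heq2'⟩, ha⟩, hrest⟩ := hc
  refine ⟨hself, hge, hle, fun e => heq2.resolve_left fun n => n e,
    fun e => heq2'.resolve_left fun n => n e, fun e => ?_, fun e => ?_, fun e hne => ?_, fun e => ?_⟩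
  · unfold ip at e
    rw [if_pos e] at hrest
    simp only [Bool.and_eq_true, decide_eq_true_eq] at hrest
    obtain ⟨-, hm⟩ := hrest
    split at hm
    · rename_i k C hcT
      simp only [Bool.and_eq_true, List.all_eq_true, List.mem_range, decide_eq_true_eq] at hm
      exact ⟨k, C, ⟨hm.1.1, hm.2⟩, hcT, hm.1.2⟩
    · simp at hm
  · unfold ip at e
    rw [if_pos e] at hrest
    simp only [Bool.and_eq_true, decide_eq_true_eq] at hrest
    exact ⟨_, ha, hrest.1.1, hrest.1.2⟩
  all_goals
    have e1 : ¬ ipV D S.vec r s = -1 := fun e' => by rw [ip, e'] at e; omega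
    have e2 : ¬ ipV D S.vec r s < 0 := not_lt.2 e
    rw [if_neg e1, if_neg e2] at hrest
    simp only [Bool.and_eq_true, Bool.or_eq_true, decide_eq_true_eq] at hrest
  · exact hrest.2.resolve_left hne
  · exact ⟨_, ha, hrest.1.1.1, hrest.1.1.2, hrest.1.2⟩

end CfsgLib.ChevUniversal
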