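import Mathlib
import Cfsg.Agent.ChevUniversal.Simply
import Cfsg.Agent.ChevSteinberg.Kernel
import Cfsg.Agent.Schur.CentralCommutator

/-!
Central extensions of simply laced Chevalley groups: the commutators of lifted root elements give
elements satisfying Steinberg's relations (R1), (R2), over every field.
-/

set_option autoImplicit false

open scoped commutatorElement

namespace CfsgLib.ChevUniversal

open Cfsg.Lie CfsgLib.Chevalley CfsgLib.ChevSteinberg

variable {D : ChevalleyDatum} {S : Sys D}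

/-- `k = a + b` for adjacent roots. -/
structure Decomp (S : Sys D) (a b k : ℕ) : Prop where
  lt_left : a < D.nroots
  lt_right : b < D.nroots
  isSum : IsSum S a b k
  ip_eq : ip S a b = -1

theorem Decomp.lt {a b k : ℕ} (d : Decomp S a b k) : k < D.nroots := d.isSum.1

theorem IsSum.swap {a b k : ℕ} (h : IsSum S a b k) : IsSum S b a k :=
  ⟨h.1, fun j hj => by rw [h.2 j hj, add_comm]⟩

namespace Simply

variable (P : Simply S)
include P

theorem ip_comm {r s : ℕ} (hr : r < D.nroots) (hs : s < D.nroots) : ip S r s = ip S s r :=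
  ip_symm S P.symm_cartan hr hs

theorem ip_self {r : ℕ} (hr : r < D.nroots) : ip S r r = 2 := (P.pair r hr r hr).self

theorem decomp_swap {a b k : ℕ} (d : Decomp S a b k) : Decomp S b a k :=
  ⟨d.lt_right, d.lt_left, d.isSum.swap, by rw [P.ip_comm d.lt_right d.lt_left]; exact d.ip_eq⟩

theorem ip_left {a b k : ℕ} (d : Decomp S a b k) : ip S a k = 1 := by
  rw [P.ip_comm d.lt_left d.lt, ip_add_left S d.isSum, P.ip_self d.lt_left,
    P.ip_comm d.lt_right d.lt_left, d.ip_eq]
  norm_num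

theorem exists_decomp {a b : ℕ} (ha : a < D.nroots) (hb : b < D.nroots) (h : ip S a b = -1) :
    ∃ k, Decomp S a b k := by
  obtain ⟨k, _, hk, -⟩ := (P.pair a ha b hb).sum h
  exact ⟨k, ha, hb, hk, h⟩

/-- A root minus an adjacent root. -/
theorem exists_sub {r a : ℕ} (hr : r < D.nroots) (ha : a < D.nroots) (h : ip S a r = 1) :
    ∃ b, Decomp S a b r := by
  have hna := S.wf.neg_lt a ha
  have h' : ip S r (D.neg a) = -1 := by
    rw [P.ip_comm hr hna, ip_neg_left S ha, h]
  obtain ⟨b, d⟩ := P.exists_decomp hr hna h'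
  have hs : IsSum S a b r := ⟨hr, fun j hj => by rw [d.isSum.2 j hj, S.vec_neg j hj a ha]; ring⟩
  refine ⟨b, ha, d.lt, hs, ?_⟩
  rw [P.ip_comm ha d.lt]
  have := ip_add_left S hs a
  rw [P.ip_self ha, P.ip_comm hr ha, h] at this
  linarith

theorem neg_ip {r : ℕ} (hr : r < D.nroots) : ip S r (D.neg r) = -2 := by
  rw [P.ip_comm hr (S.wf.neg_lt r hr), ip_neg_left S hr, P.ip_self hr]

variable (F : Type*) [Field F]

/-- Root elements of non-negative inner product commute. -/
theorem xG_comm_of_nonneg {r s : ℕ} (hr : r < D.nroots) (hs : s < D.nroots) (h : 0 ≤ ip S r s)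
    (t u : F) : Commute (S.xG F r t) (S.xG F s u) := by
  by_cases e : s = r
  · subst e
    show _ = _
    rw [S.xG_add, S.xG_add, add_comm]
  · have hne : s ≠ D.neg r := fun e' => by rw [e', P.neg_ip hr] at h; omega
    have e' := S.xG_comm F hr hs e hne t u
    have e'' : S.wG F (D.commWord F r s t u) = 1 := by
      simp [Sys.wG, ChevalleyDatum.commWord, (P.pair r hr s hs).comm h e]
    rw [e'', mul_one, mul_assoc, inv_mul_eq_iff_eq_mul] at e'
    exact e'.symm

theorem commTerms_decomp {a b k : ℕ} (d : Decomp S a b k) :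
    ∃ C : ℤ, D.commTerms a b = [(k, C, 1, 1)] ∧ (C = 1 ∨ C = -1) := by
  obtain ⟨k', C, hk', hc, hC⟩ := (P.pair a d.lt_left b d.lt_right).sum d.ip_eq
  obtain rfl : k' = k :=
    S.vec_inj _ hk'.1 _ d.lt fun j hj => by rw [hk'.2 j hj, d.isSum.2 j hj]
  exact ⟨C, hc, hC⟩

/-- The commutator of adjacent root elements. -/
theorem bracket_xG {a b k : ℕ} (d : Decomp S a b k) : ∃ C : F, C * C = 1 ∧
    ∀ t u : F, ⁅S.xG F a t, S.xG F b u⁆ = S.xG F k (C * t * u) := by
  obtain ⟨C, hc, hC⟩ := P.commTerms_decomp d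
  refine ⟨C, by rcases hC with rfl | rfl <;> simp, fun t u => ?_⟩
  have h1 : b ≠ a := fun e => by
    have := d.ip_eq; rw [e, P.ip_self d.lt_left] at this; omega
  have h2 : b ≠ D.neg a := fun e => by
    have := d.ip_eq; rw [e, P.neg_ip d.lt_left] at this; omega
  have e := S.xG_comm F d.lt_left d.lt_right h1 h2 (-t) u
  have e' : S.wG F (D.commWord F a b (-t) u) = S.xG F k ((C : F) * t * u) := by
    simp [Sys.wG, ChevalleyDatum.commWord, hc]
  rw [e', S.xG_inv, neg_neg] at e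
  have hcm : Commute (S.xG F b u) (S.xG F k ((C : F) * t * u)) :=
    P.xG_comm_of_nonneg F d.lt_right d.lt (by rw [P.ip_left (P.decomp_swap d)]; norm_num) _ _
  rw [commutatorElement_def, S.xG_inv F a t, e, hcm.eq, mul_inv_cancel_right]

end Simply

section Lifts

variable {F : Type*} [Field F] {Γ : Type*} [Group Γ]

/-- A central map onto the root elements. -/
structure Over (S : Sys D) (σ : Γ →* GL D.Idx F) : Prop where
  simply : Simply S
  central : σ.ker ≤ Subgroup.center Γ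
  lift : ∀ r < D.nroots, ∀ t, ∃ g, σ g = S.xG F r t

variable {σ : Γ →* GL D.Idx F}

open Classical in
/-- A chosen preimage of a root element. -/
noncomputable def lft (S : Sys D) (σ : Γ →* GL D.Idx F) (r : ℕ) (t : F) : Γ :=
  if h : ∃ g, σ g = S.xG F r t then h.choose else 1

/-- The commutator of two chosen preimages. -/
noncomputable def brk (S : Sys D) (σ : Γ →* GL D.Idx F) (a b : ℕ) (t u : F) : Γ :=
  ⁅lft S σ a t, lft S σ b u⁆

namespace Over

variable (H : Over S σ)
include H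

theorem σ_lft {r : ℕ} (hr : r < D.nroots) (t : F) : σ (lft S σ r t) = S.xG F r t := by
  rw [lft, dif_pos (H.lift r hr t)]
  exact (H.lift r hr t).choose_spec

theorem congr {g g' h h' : Γ} (e1 : σ g = σ g') (e2 : σ h = σ h') : ⁅g, h⁆ = ⁅g', h'⁆ :=
  Schur.commutator_congr H.central e1 e2

theorem σ_brk {a b k : ℕ} (d : Decomp S a b k) :
    ∃ C : F, C * C = 1 ∧ ∀ t u : F, σ (brk S σ a b t u) = S.xG F k (C * t * u) := by
  obtain ⟨C, hC, h⟩ := H.simply.bracket_xG F d
  exact ⟨C, hC, fun t u => by rw [brk, map_commutatorElement, H.σ_lft d.lt_left,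
    H.σ_lft d.lt_right, h]⟩

/-- All lifts of root elements of non-negative inner product commute. -/
theorem commute {r s : ℕ} (hr : r < D.nroots) (hs : s < D.nroots) (h : 0 ≤ ip S r s) {g g' : Γ}
    {t u : F} (e1 : σ g = S.xG F r t) (e2 : σ g' = S.xG F s u) : Commute g g' := by
  obtain ⟨a, ha, har, has, hale⟩ := (H.simply.pair r hr s hs).split h
  obtain ⟨b, d⟩ := H.simply.exists_sub hr ha har
  have hbs : 0 ≤ ip S b s := by
    have := ip_add_left S d.isSum s
    linarith
  obtain ⟨C, hC, hσ⟩ := H.σ_brk d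
  have e3 : σ (brk S σ a b (C * t) 1) = σ g := by
    rw [hσ, e1, ← mul_assoc, hC, one_mul, mul_one]
  have key : ⁅g' * lft S σ a (C * t) * g'⁻¹, g' * lft S σ b 1 * g'⁻¹⁆ = brk S σ a b (C * t) 1 := by
    refine H.congr ?_ ?_
    · rw [map_mul, map_mul, map_inv, e2, H.σ_lft ha,
        (H.simply.xG_comm_of_nonneg F ha hs has (C * t) u).symm.eq, mul_inv_cancel_right]
    · rw [map_mul, map_mul, map_inv, e2, H.σ_lft d.lt_right,
        (H.simply.xG_comm_of_nonneg F d.lt_right hs hbs 1 u).symm.eq, mul_inv_cancel_right]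
  have hcm : Commute (brk S σ a b (C * t) 1) g' := by
    show _ = _
    have e : g' * brk S σ a b (C * t) 1 * g'⁻¹ =
        ⁅g' * lft S σ a (C * t) * g'⁻¹, g' * lft S σ b 1 * g'⁻¹⁆ := conjugate_commutatorElement _ _ _
    rw [key] at e
    exact (mul_inv_eq_iff_eq_mul.1 e).symm
  have hk : (brk S σ a b (C * t) 1)⁻¹ * g ∈ σ.ker := by
    rw [MonoidHom.mem_ker, map_mul, map_inv, e3, inv_mul_cancel]
  have hz : Commute ((brk S σ a b (C * t) 1)⁻¹ * g) g' :=
    (Subgroup.mem_center_iff.1 (H.central hk) g').symm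
  simpa using hcm.mul_left hz

theorem brk_add_left {a b k : ℕ} (d : Decomp S a b k) (t t' u : F) :
    brk S σ a b (t + t') u = brk S σ a b t u * brk S σ a b t' u := by
  obtain ⟨C, -, hσ⟩ := H.σ_brk d
  have hc : Commute (lft S σ a t) (brk S σ a b t' u) :=
    H.commute d.lt_left d.lt (by rw [H.simply.ip_left d]; norm_num) (H.σ_lft d.lt_left t) (hσ t' u)
  have hk : Commute (brk S σ a b t' u) (brk S σ a b t u) :=
    H.commute d.lt d.lt (by rw [H.simply.ip_self d.lt]; norm_num) (hσ t' u) (hσ t u)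
  calc brk S σ a b (t + t') u = ⁅lft S σ a t * lft S σ a t', lft S σ b u⁆ :=
        H.congr (by rw [map_mul, H.σ_lft d.lt_left, H.σ_lft d.lt_left, H.σ_lft d.lt_left, S.xG_add])
          rfl
    _ = lft S σ a t * brk S σ a b t' u * (lft S σ a t)⁻¹ * brk S σ a b t u := by
        simp only [brk, commutatorElement_def]; group
    _ = brk S σ a b t u * brk S σ a b t' u := by rw [hc.eq, mul_inv_cancel_right, hk.eq]

theorem brk_zero_left {a b k : ℕ} (d : Decomp S a b k) (u : F) : brk S σ a b 0 u = 1 := by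
  have h := H.brk_add_left d 0 0 u
  rw [add_zero] at h
  exact mul_eq_left.1 h.symm

theorem brk_neg_left {a b k : ℕ} (d : Decomp S a b k) (t u : F) :
    brk S σ a b (-t) u = (brk S σ a b t u)⁻¹ :=
  eq_inv_of_mul_eq_one_left (by rw [← H.brk_add_left d, neg_add_cancel, H.brk_zero_left d])

theorem shift {a b k c e f : ℕ} (d₁ : Decomp S a b k) (d₂ : Decomp S c f a) (d₃ : Decomp S f b e)
    (d₄ : Decomp S c e k) (h0 : 0 ≤ ip S c b) : ∃ C₁ C₂ : F, C₁ * C₁ = 1 ∧ C₂ * C₂ = 1 ∧
      ∀ t u v, brk S σ a b (C₁ * t * u) v = brk S σ c e t (C₂ * u * v) := by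
  obtain ⟨C₁, h1, hσ1⟩ := H.σ_brk d₂
  obtain ⟨C₂, h2, hσ2⟩ := H.σ_brk d₃
  obtain ⟨C₄, -, hσ4⟩ := H.σ_brk d₄
  refine ⟨C₁, C₂, h1, h2, fun t u v => ?_⟩
  have eA : brk S σ a b (C₁ * t * u) v = ⁅brk S σ c f t u, lft S σ b v⁆ :=
    H.congr (by rw [hσ1, H.σ_lft d₁.lt_left]) rfl
  have eB : brk S σ c e t (C₂ * u * v) = ⁅lft S σ c t, brk S σ f b u v⁆ :=
    H.congr rfl (by rw [hσ2, H.σ_lft d₄.lt_right])
  have sB : σ ⁅lft S σ c t, brk S σ f b u v⁆ = S.xG F k (C₄ * t * (C₂ * u * v)) := by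
    rw [← eB, hσ4]
  rw [eA, eB]
  set cc := lft S σ c t
  set dd := lft S σ f u
  set bb := lft S σ b v
  set E := brk S σ f b u v with hE
  set K := ⁅cc, E⁆ with hK
  have scc := H.σ_lft d₂.lt_left t
  have sdd := H.σ_lft d₂.lt_right u
  have sbb := H.σ_lft d₁.lt_right v
  have hcb : Commute cc bb := H.commute d₂.lt_left d₁.lt_right h0 scc sbb
  have hdE : Commute dd E := H.commute d₃.lt_left d₃.lt
    (by rw [H.simply.ip_left d₃]; norm_num) sdd (hσ2 u v)
  have hcK : Commute cc K := H.commute d₄.lt_left d₄.lt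
    (by rw [H.simply.ip_left d₄]; norm_num) scc sB
  have hfk : ip S f k = 0 := by
    rw [H.simply.ip_comm d₂.lt_right d₁.lt, ip_add_left S d₁.isSum,
      H.simply.ip_comm d₁.lt_left d₂.lt_right, H.simply.ip_left (H.simply.decomp_swap d₂),
      H.simply.ip_comm d₁.lt_right d₃.lt_left, d₃.ip_eq]
    norm_num
  have hdK : Commute dd K := H.commute d₃.lt_left d₄.lt (by rw [hfk]) sdd sB
  have hEK : Commute E K := H.commute d₃.lt d₄.lt
    (by rw [H.simply.ip_left (H.simply.decomp_swap d₄)]; norm_num) (hσ2 u v) sB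
  have r1 : dd * bb * dd⁻¹ = E * bb := by
    show _ = ⁅dd, bb⁆ * bb
    rw [commutatorElement_def, inv_mul_cancel_right]
  have r2 : cc * E * cc⁻¹ = K * E := by
    rw [hK, commutatorElement_def, inv_mul_cancel_right]
  have r3 : dd⁻¹ * bb * dd = E⁻¹ * bb := by
    calc dd⁻¹ * bb * dd = dd⁻¹ * (E⁻¹ * (E * bb)) * dd := by group
      _ = (dd⁻¹ * E⁻¹ * dd) * (dd⁻¹ * (dd * bb * dd⁻¹) * dd) := by rw [r1]; group
      _ = E⁻¹ * bb := by rw [hdE.inv_inv.eq]; group
  have r4 : cc⁻¹ * E⁻¹ * cc = E⁻¹ * K := by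
    have e1 : cc * (E⁻¹ * K) = E⁻¹ * cc := by
      calc cc * (E⁻¹ * K) = (cc * E * cc⁻¹)⁻¹ * (cc * K) := by group
        _ = E⁻¹ * cc := by rw [r2, hcK.eq]; group
    rw [mul_assoc, ← e1, inv_mul_cancel_left]
  have r5 : cc⁻¹ * bb * cc = bb := by rw [mul_assoc, ← hcb.eq, inv_mul_cancel_left]
  show ⁅⁅cc, dd⁆, bb⁆ = K
  calc ⁅⁅cc, dd⁆, bb⁆
      = cc * (dd * (cc⁻¹ * (dd⁻¹ * bb * dd) * cc) * dd⁻¹) * cc⁻¹ * bb⁻¹ := by
        simp only [commutatorElement_def]; group
    _ = cc * (dd * ((cc⁻¹ * E⁻¹ * cc) * (cc⁻¹ * bb * cc)) * dd⁻¹) * cc⁻¹ * bb⁻¹ := by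
        rw [r3]; group
    _ = cc * ((dd * E⁻¹ * dd⁻¹) * (dd * K * dd⁻¹) * (dd * bb * dd⁻¹)) * cc⁻¹ * bb⁻¹ := by
        rw [r4, r5]; group
    _ = cc * (E⁻¹ * K * (E * bb)) * cc⁻¹ * bb⁻¹ := by
        rw [hdE.inv_right.eq, mul_inv_cancel_right, hdK.eq, mul_inv_cancel_right, r1]
    _ = cc * (K * bb) * cc⁻¹ * bb⁻¹ := by
        rw [← mul_assoc (E⁻¹ * K), mul_assoc E⁻¹ K E, ← hEK.eq, inv_mul_cancel_left, mul_assoc]
    _ = K := by
        rw [(hcK.mul_right hcb).eq, mul_inv_cancel_right, mul_inv_cancel_right]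

theorem brk_prod {a b k : ℕ} (d : Decomp S a b k) (t v : F) :
    brk S σ a b t v = brk S σ a b (t * v) 1 := by
  obtain ⟨f, hf, hfa, hfb⟩ := (H.simply.pair a d.lt_left b d.lt_right).shift d.ip_eq
  obtain ⟨c, d₂'⟩ := H.simply.exists_sub d.lt_left hf hfa
  have d₂ := H.simply.decomp_swap d₂'
  obtain ⟨e, d₃⟩ := H.simply.exists_decomp hf d.lt_right hfb
  have h0 : ip S c b = 0 := by
    have := ip_add_left S d₂.isSum b
    rw [d.ip_eq, hfb] at this
    linarith
  have d₄ : Decomp S c e k := by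
    refine ⟨d₂.lt_left, d₃.lt, ⟨d.lt, fun j hj => ?_⟩, ?_⟩
    · rw [d.isSum.2 j hj, d₂.isSum.2 j hj, d₃.isSum.2 j hj]; ring
    · rw [H.simply.ip_comm d₂.lt_left d₃.lt, ip_add_left S d₃.isSum,
        H.simply.ip_comm hf d₂.lt_left, d₂.ip_eq, H.simply.ip_comm d.lt_right d₂.lt_left, h0]
      norm_num
  obtain ⟨C₁, C₂, h1, -, hs⟩ := H.shift d d₂ d₃ d₄ h0.ge
  have e1 := hs 1 (C₁ * t) v
  have e2 := hs 1 (C₁ * (t * v)) 1
  rw [mul_one, ← mul_assoc, h1, one_mul] at e1
  rw [mul_one, ← mul_assoc C₁, h1, one_mul] at e2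
  rw [e1, e2]
  congr 1
  ring

theorem brk_link {a b k a' b' : ℕ} (d : Decomp S a b k) (d' : Decomp S a' b' k)
    (h : ip S a a' = 1) (t : F) : ∃ w, brk S σ a b t 1 = brk S σ a' b' w 1 := by
  have h' : ip S a' a = 1 := by rw [H.simply.ip_comm d'.lt_left d.lt_left, h]
  obtain ⟨f, d₂⟩ := H.simply.exists_sub d.lt_left d'.lt_left h'
  have hb : ip S a' b = 0 := by
    have := ip_add_left S d.isSum a'
    rw [H.simply.ip_comm d.lt d'.lt_left, H.simply.ip_left d', h,
      H.simply.ip_comm d.lt_right d'.lt_left] at this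
    linarith
  have d₃ : Decomp S f b b' := by
    refine ⟨d₂.lt_right, d.lt_right, ⟨d'.lt_right, fun j hj => ?_⟩, ?_⟩
    · have e1 := d.isSum.2 j hj
      have e2 := d'.isSum.2 j hj
      have e3 := d₂.isSum.2 j hj
      linarith
    · have := ip_add_left S d₂.isSum b
      rw [d.ip_eq, hb] at this
      linarith
  obtain ⟨C₁, C₂, h1, -, hs⟩ := H.shift d d₂ d₃ d' hb.ge
  refine ⟨(C₁ * t) * C₂, ?_⟩
  have e1 := hs (C₁ * t) 1 1
  rw [mul_one, mul_one, mul_one, ← mul_assoc, h1, one_mul] at e1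
  rw [e1, H.brk_prod d']

theorem brk_swap {a b k : ℕ} (d : Decomp S a b k) (t : F) :
    brk S σ b a t 1 = brk S σ a b (-t) 1 := by
  rw [H.brk_neg_left d, H.brk_prod (H.simply.decomp_swap d) t 1, mul_one]
  have e := H.brk_prod (H.simply.decomp_swap d) 1 t
  rw [one_mul] at e
  rw [← e]
  exact (commutatorElement_inv _ _).symm

/-- All decompositions of a root give the same lifts. -/
theorem brk_indep {a b k a' b' : ℕ} (d : Decomp S a b k) (d' : Decomp S a' b' k) (t u : F) :
    ∃ w, brk S σ a b t u = brk S σ a' b' w 1 := by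
  rw [H.brk_prod d]
  generalize t * u = s
  have hsum : ip S a a' + ip S a b' = 1 := by
    have := ip_add_left S d'.isSum a
    rw [H.simply.ip_comm d'.lt d.lt_left, H.simply.ip_left d,
      H.simply.ip_comm d'.lt_left d.lt_left, H.simply.ip_comm d'.lt_right d.lt_left] at this
    linarith
  have p1 := H.simply.pair a d.lt_left a' d'.lt_left
  have p2 := H.simply.pair a d.lt_left b' d'.lt_right
  by_cases e1 : ip S a a' = 2
  · obtain rfl := p1.eq_two e1
    obtain rfl : b' = b := S.vec_inj _ d'.lt_right _ d.lt_right fun j hj => by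
      have := d.isSum.2 j hj; have := d'.isSum.2 j hj; linarith
    exact ⟨s, rfl⟩
  by_cases e2 : ip S a b' = 2
  · obtain rfl := p2.eq_two e2
    obtain rfl : a' = b := S.vec_inj _ d'.lt_left _ d.lt_right fun j hj => by
      have := d.isSum.2 j hj; have := d'.isSum.2 j hj; linarith
    exact ⟨-s, by rw [← H.brk_swap (H.simply.decomp_swap d)]⟩
  have := p1.le
  have := p2.le
  by_cases e3 : ip S a a' = 1
  · exact H.brk_link d d' e3 s
  · obtain ⟨w, hw⟩ := H.brk_link d (H.simply.decomp_swap d') (by omega) s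
    exact ⟨-w, by rw [hw, H.brk_swap d']⟩

theorem exists_decomp_of {k : ℕ} (hk : k < D.nroots) : ∃ a b, Decomp S a b k := by
  obtain ⟨a, ha, hak, -, -⟩ := (H.simply.pair k hk k hk).split
    (by rw [H.simply.ip_self hk]; norm_num)
  obtain ⟨b, d⟩ := H.simply.exists_sub hk ha hak
  exact ⟨a, b, d⟩

/-- The canonical lifts. -/
theorem exists_canon {k : ℕ} (hk : k < D.nroots) : ∃ y : F → Γ,
    (∀ t, σ (y t) = S.xG F k t) ∧ (∀ t u, y t * y u = y (t + u)) ∧
    ∀ a b, Decomp S a b k → ∀ t u w, σ (brk S σ a b t u) = S.xG F k w →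
      brk S σ a b t u = y w := by
  obtain ⟨a, b, d⟩ := H.exists_decomp_of hk
  obtain ⟨C, hC, hσ⟩ := H.σ_brk d
  refine ⟨fun t => brk S σ a b (C * t) 1, fun t => ?_, fun t u => ?_, fun a' b' d' t u w hw => ?_⟩
  · rw [hσ, mul_one, ← mul_assoc, hC, one_mul]
  · simp only [mul_add, H.brk_add_left d]
  · obtain ⟨s, hs⟩ := H.brk_indep d' d t u
    rw [hs, hσ] at hw
    have := StSys.xG_param_inj hk hw
    rw [hs]
    show brk S σ a b s 1 = brk S σ a b (C * w) 1
    rw [← this, mul_one, ← mul_assoc, hC, one_mul]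

/-- The central extension carries Steinberg's relations (R1), (R2). -/
theorem exists_stSys : ∃ T : StSys S F Γ, T.θ = σ := by
  classical
  choose y hy1 hy2 hy3 using fun k : Fin D.nroots => H.exists_canon k.isLt
  refine ⟨{ y := fun r t => if h : r < D.nroots then y ⟨r, h⟩ t else 1
            θ := σ
            out := fun r hr t => dif_neg hr
            add := fun r t u => ?_
            comm := fun r hr s hs hsr hsn t u => ?_
            θ_y := fun r t => ?_ }, rfl⟩
  · by_cases hr : r < D.nroots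
    · simp only [dif_pos hr, hy2]
    · simp only [dif_neg hr, one_mul]
  · simp only [dif_pos hr, dif_pos hs]
    have P := H.simply.pair r hr s hs
    have hinv : (y ⟨r, hr⟩ t)⁻¹ = y ⟨r, hr⟩ (-t) := by
      refine inv_eq_of_mul_eq_one_right ?_
      rw [hy2, add_neg_cancel]
      have := hy2 ⟨r, hr⟩ 0 0
      rw [add_zero] at this
      exact mul_eq_left.1 this
    by_cases h1 : ip S r s = -1
    · obtain ⟨k, d⟩ := H.simply.exists_decomp hr hs h1
      obtain ⟨C, hc, -⟩ := H.simply.commTerms_decomp d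
      have hw : σ (brk S σ r s (-t) u) = S.xG F k ((C : F) * (-t) * u) := by
        have e := S.xG_comm F hr hs hsr hsn t u
        have e' : S.wG F (D.commWord F r s t u) = S.xG F k ((C : F) * (-t) * u) := by
          simp [Sys.wG, ChevalleyDatum.commWord, hc]
        rw [e', S.xG_inv] at e
        rw [brk, map_commutatorElement, H.σ_lft hr, H.σ_lft hs, commutatorElement_def, S.xG_inv,
          neg_neg, e,
          (H.simply.xG_comm_of_nonneg F hs d.lt
            (by rw [H.simply.ip_left (H.simply.decomp_swap d)]; norm_num) u _).eq,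
          mul_inv_cancel_right]
      have hb := hy3 ⟨k, d.lt⟩ r s d (-t) u _ hw
      have hcg : brk S σ r s (-t) u = ⁅y ⟨r, hr⟩ (-t), y ⟨s, hs⟩ u⁆ :=
        H.congr (by rw [H.σ_lft hr, hy1]) (by rw [H.σ_lft hs, hy1])
      rw [hcg] at hb
      simp only [ChevalleyDatum.commWord, hc, List.map_cons, List.map_nil, List.prod_cons,
        List.prod_nil, mul_one, pow_one, dif_pos d.lt]
      have hcm : Commute (y ⟨s, hs⟩ u) (y ⟨k, d.lt⟩ ((C : F) * -t * u)) :=
        H.commute hs d.lt (by rw [H.simply.ip_left (H.simply.decomp_swap d)]; norm_num) (hy1 _ _)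
          (hy1 _ _)
      rw [hcm.eq, ← hb, hinv, commutatorElement_def, inv_mul_cancel_right, ← hinv, inv_inv]
    · have h2 : ip S r s ≠ -2 := fun e => hsn (P.eq_neg_two e)
      have := P.ge
      have h0 : 0 ≤ ip S r s := by omega
      simp only [ChevalleyDatum.commWord, P.comm h0 hsr, List.map_nil, List.prod_nil, mul_one]
      rw [mul_assoc, inv_mul_eq_iff_eq_mul]
      exact (H.commute hr hs h0 (hy1 _ _) (hy1 _ _)).eq.symm
  · by_cases hr : r < D.nroots
    · simp only [dif_pos hr, hy1]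
    · simp only [dif_neg hr, map_one]
      exact Units.ext (by rw [S.xG_val, x_out hr]; rfl)

end Over

end Lifts

end CfsgLib.ChevUniversal
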