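import Cfsg.Agent.ChevUniversal.Simply
import Cfsg.Agent.Chevalley.All

/-! The simply laced systems of types E6, E7, E8. -/

set_option autoImplicit false

namespace CfsgLib.ChevUniversal

open Cfsg.Lie CfsgLib.Chevalley

/-- Witnesses at the highest root of E6. -/
def witE6 : List ℕ :=
  [46, 53, 51, 50, 50, 48, 47, 47, 46, 46, 46, 49, 48, 47, 46, 46, 48, 47, 47, 46, 46, 46, 46, 46,
  46, 47, 49, 48, 47, 46, 47, 47, 48, 46, 46, 46, 46, 46, 46, 48, 47, 47, 46, 47, 48, 49, 47,
  46, 46, 46, 46, 46, 46, 46, 46, 46, 46, 46, 47, 48, 49, 46, 46, 46, 46, 46, 46, 46, 46, 46,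
  47, 46]

theorem chkSimply_E6 : chkSimply chevE6 (tabE6.coord chevE6.rank) tabE6.tops witE6 = true := by
  decide +kernel

theorem simply_E6 : Simply sysE6 := simply_of_chk sysE6 chkSimply_E6

/-- Witnesses at the highest root of E7. -/
def witE7 : List ℕ :=
  [93, 109, 103, 100, 99, 99, 99, 96, 95, 95, 95, 94, 94, 94, 94, 94, 94, 93, 93, 93, 93, 93, 93,
  93, 93, 93, 93, 93, 93, 93, 93, 93, 94, 97, 96, 96, 95, 95, 95, 94, 94, 94, 94, 93, 93, 93,
  93, 93, 94, 94, 94, 94, 95, 93, 93, 93, 93, 93, 93, 93, 93, 93, 93, 93, 93, 93, 93, 93, 93,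
  93, 93, 93, 93, 95, 94, 94, 94, 94, 93, 93, 93, 93, 93, 94, 94, 94, 94, 95, 95, 95, 96, 96,
  97, 94, 93, 93, 93, 93, 93, 93, 93, 93, 93, 93, 93, 93, 93, 93, 93, 93, 93, 93, 93, 93, 93,
  93, 93, 93, 93, 93, 93, 93, 93, 93, 94, 93]

theorem chkSimply_E7 : chkSimply chevE7 (tabE7.coord chevE7.rank) tabE7.tops witE7 = true := by
  decide +kernel

theorem simply_E7 : Simply sysE7 := simply_of_chk sysE7 chkSimply_E7

/-- Witnesses at the highest root of E8. -/
def witE8 : List ℕ :=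
  [120, 161, 160, 158, 155, 151, 146, 140, 134, 129, 125, 122, 120, 168, 146, 134, 129, 125, 122,
  120, 140, 129, 125, 122, 120, 134, 125, 122, 120, 129, 122, 120, 125, 120, 122, 120, 125, 122,
  120, 129, 122, 120, 125, 120, 122, 120, 122, 120, 125, 120, 122, 120, 120, 122, 120, 120, 122,
  120, 125, 120, 122, 120, 120, 122, 120, 120, 120, 122, 120, 120, 120, 120, 122, 120, 120, 120,
  120, 120, 122, 120, 125, 120, 122, 120, 120, 122, 120, 120, 120, 122, 120, 120, 120, 120, 122,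
  120, 120, 120, 120, 120, 122, 120, 120, 120, 120, 120, 122, 120, 120, 120, 120, 122, 120, 120,
  120, 122, 120, 120, 125, 122, 122, 125, 120, 120, 122, 120, 120, 120, 122, 120, 120, 120, 120,
  122, 120, 120, 120, 120, 120, 122, 120, 120, 120, 120, 120, 122, 120, 120, 120, 120, 122, 120,
  120, 120, 122, 120, 120, 122, 120, 125, 120, 120, 120, 120, 120, 120, 120, 122, 120, 120, 120,
  120, 122, 120, 120, 120, 122, 120, 120, 122, 120, 125, 120, 120, 120, 120, 122, 120, 120, 122,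
  120, 125, 120, 120, 120, 122, 120, 125, 120, 120, 129, 120, 120, 120, 120, 122, 120, 125, 120,
  120, 129, 120, 120, 120, 134, 120, 120, 120, 120, 140, 120, 120, 120, 120, 120, 120, 168, 120,
  120, 120, 120, 120, 120, 120, 120, 120, 120, 120, 122, 120]

theorem chkSimply_E8 : chkSimply chevE8 (tabE8.coord chevE8.rank) tabE8.tops witE8 = true := by
  decide +kernel

theorem simply_E8 : Simply sysE8 := simply_of_chk sysE8 chkSimply_E8

end CfsgLib.ChevUniversal
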