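import Mathlib
import Cfsg.Agent.Chevalley.Formula
import Cfsg.Agent.ChevSteinberg.SteinbergTorus

/-!
Embeddings of tabulated systems (a subdiagram on the first nodes): structure constants agree, so
there is a homomorphism from the presented group to the bigger Chevalley group.
-/

set_option autoImplicit false

namespace CfsgLib.ChevUniversal

open Cfsg.Lie CfsgLib.Chevalley CfsgLib.ChevSteinberg

variable {D D' : ChevalleyDatum} (S : Sys D) (S' : Sys D')

/-- A map of roots respecting the structure constants. -/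
structure Emb where
  ι : ℕ → ℕ
  lt : ∀ r < D.nroots, ι r < D'.nroots
  rank_le : D.rank ≤ D'.rank
  simple : ∀ i < D.rank, ι (D.simple i) = D'.simple i
  neg : ∀ r < D.nroots, D'.neg (ι r) = ι (D.neg r)
  inj : ∀ r < D.nroots, ∀ s < D.nroots, ι r = ι s → r = s
  comm : ∀ r < D.nroots, ∀ s < D.nroots, s ≠ r → s ≠ D.neg r →
    D'.commTerms (ι r) (ι s) = (D.commTerms r s).map fun c => (ι c.1, c.2)

/-- Check of an embedding given by a list `io` with partial inverse `jo`. -/
def chkEmb (D D' : ChevalleyDatum) (η η' : ℕ → ℕ → ℤ) (tops io jo : List ℕ) : Bool :=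
  decide (D.rank ≤ D'.rank) &&
  ((List.range D.rank).all fun i => decide (io.getD (D.simple i) 0 = D'.simple i)) &&
  ((List.range D.nroots).all fun r => decide (io.getD r 0 < D'.nroots) &&
    decide (jo.getD (io.getD r 0) 0 = r) && decide (D'.neg (io.getD r 0) = io.getD (D.neg r) 0)) &&
  ((List.range D.rank).all fun i => (List.range D.nroots).all fun r =>
    decide (io.getD (D.reflectRoot i r) 0 = D'.reflectRoot i (io.getD r 0)) &&
      decide (η' i (io.getD r 0) = η i r)) &&
  tops.all fun r => (List.range D.nroots).all fun s => decide (s = r) || decide (s = D.neg r) ||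
    decide (D'.commTerms (io.getD r 0) (io.getD s 0) =
      (D.commTerms r s).map fun c => (io.getD c.1 0, c.2))

/-- The check gives an embedding. -/
noncomputable def embOfChk {io jo : List ℕ} (h : chkEmb D D' S.eta S'.eta S.tops io jo = true) :
    Emb (D := D) (D' := D') :=
  have h' := h
  { ι := fun r => io.getD r 0
    lt := by
      simp only [chkEmb, Bool.and_eq_true, List.all_eq_true, List.mem_range,
        decide_eq_true_eq] at h'
      exact fun r hr => (h'.1.1.2 r hr).1.1
    rank_le := by
      simp only [chkEmb, Bool.and_eq_true, decide_eq_true_eq] at h'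
      exact h'.1.1.1.1
    simple := by
      simp only [chkEmb, Bool.and_eq_true, List.all_eq_true, List.mem_range,
        decide_eq_true_eq] at h'
      exact h'.1.1.1.2
    neg := by
      simp only [chkEmb, Bool.and_eq_true, List.all_eq_true, List.mem_range,
        decide_eq_true_eq] at h'
      exact fun r hr => (h'.1.1.2 r hr).2
    inj := by
      simp only [chkEmb, Bool.and_eq_true, List.all_eq_true, List.mem_range,
        decide_eq_true_eq] at h'
      intro r hr s hs e
      rw [← (h'.1.1.2 r hr).1.2, e, (h'.1.1.2 s hs).1.2]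
    comm := by
      simp only [chkEmb, Bool.and_eq_true, Bool.or_eq_true, List.all_eq_true, List.mem_range,
        decide_eq_true_eq] at h'
      obtain ⟨⟨⟨⟨hrank, -⟩, hio⟩, hw⟩, htop⟩ := h'
      refine S.top_induction (P := fun r => ∀ s < D.nroots, s ≠ r → s ≠ D.neg r →
        D'.commTerms (io.getD r 0) (io.getD s 0) =
          (D.commTerms r s).map fun c => (io.getD c.1 0, c.2)) ?_ ?_
      · intro r hr s hs h1 h2
        exact ((htop r hr s hs).resolve_left (not_or.2 ⟨h1, h2⟩))
      intro i hi r hr ih s hs h1 h2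
      have hi' : i < D'.rank := lt_of_lt_of_le hi hrank
      have hr' := (hio r hr).1.1
      have hs' := (hio s hs).1.1
      have e := ih (D.reflectRoot i s) (S.w_lt i hi s hs) (fun e => h1 (S.w_inj hi hs hr e))
        (fun e => h2 (S.w_inj hi hs (S.wf.neg_lt r hr) (by rw [S.w_neg i hi r hr]; exact e)))
      rw [(hw i hi r hr).1, (hw i hi s hs).1, S'.commTerms_w hi' hr' hs', S.commTerms_w hi hr hs,
        List.map_map] at e
      have e2 := congrArg (List.map fun d : ℕ × ℤ × ℕ × ℕ => (D'.reflectRoot i d.1,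
        d.2.1 * S'.eta i (D'.reflectRoot i d.1) * S'.eta i (io.getD r 0) ^ d.2.2.1 *
          S'.eta i (io.getD s 0) ^ d.2.2.2, d.2.2.1, d.2.2.2)) e
      have sq : ∀ x : ℤ, x * x = 1 → ∀ n : ℕ, x ^ n * x ^ n = 1 := fun x hx n => by
        rw [← mul_pow, hx, one_pow]
      rw [List.map_map, List.map_map] at e2
      refine (((List.map_congr_left ?_).trans (List.map_id _)).symm.trans e2).trans
        (List.map_congr_left ?_)
      · intro c hc
        have hc' := S'.commTerms_lt hr' hs' hc
        simp only [Function.comp_apply, id_eq, S'.w_w i hi' c.1 hc']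
        refine Prod.ext rfl (Prod.ext ?_ rfl)
        linear_combination (c.2.1 * (S'.eta i (io.getD r 0) ^ c.2.2.1 *
            S'.eta i (io.getD r 0) ^ c.2.2.1) * (S'.eta i (io.getD s 0) ^ c.2.2.2 *
            S'.eta i (io.getD s 0) ^ c.2.2.2)) * S'.eta_mul_self hi' hc' +
          (c.2.1 * (S'.eta i (io.getD s 0) ^ c.2.2.2 * S'.eta i (io.getD s 0) ^ c.2.2.2)) *
            sq _ (S'.eta_mul_self hi' hr') c.2.2.1 +
          c.2.1 * sq _ (S'.eta_mul_self hi' hs') c.2.2.2
      · intro c hc
        have hc1 := S.commTerms_lt hr hs hc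
        have hc' := (hio c.1 hc1).1.1
        simp only [Function.comp_apply]
        rw [(hw i hi c.1 hc1).1, S'.w_w i hi' _ hc', (hw i hi c.1 hc1).2, (hw i hi r hr).2,
          (hw i hi s hs).2]
        refine Prod.ext rfl (Prod.ext ?_ rfl)
        linear_combination (c.2.1 * (S.eta i r ^ c.2.2.1 * S.eta i r ^ c.2.2.1) *
            (S.eta i s ^ c.2.2.2 * S.eta i s ^ c.2.2.2)) * S.eta_mul_self hi hc1 +
          (c.2.1 * (S.eta i s ^ c.2.2.2 * S.eta i s ^ c.2.2.2)) *
            sq _ (S.eta_mul_self hi hr) c.2.2.1 +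
          c.2.1 * sq _ (S.eta_mul_self hi hs) c.2.2.2 }

namespace Emb

variable {S S'}
variable (E : Emb (D := D) (D' := D')) (F : Type*) [Field F]

/-- The images of the generators. -/
noncomputable def gen (g : Fin D.nroots × F) : GL D'.Idx F := S'.xG F (E.ι g.1) g.2

theorem lift_stX {r : ℕ} (hr : r < D.nroots) (t : F) :
    FreeGroup.lift (E.gen (S' := S') F) (D.stX r t) = S'.xG F (E.ι r) t := by
  rw [ChevalleyDatum.stX, dif_pos hr, FreeGroup.lift_apply_of]
  rfl

theorem lift_stWord (w : List (ℕ × F)) (hw : ∀ p ∈ w, p.1 < D.nroots) :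
    FreeGroup.lift (E.gen (S' := S') F) (D.stWord w) = S'.wG F (w.map fun p => (E.ι p.1, p.2)) := by
  induction w with
  | nil => simp [ChevalleyDatum.stWord, Sys.wG]
  | cons p w ih =>
    rw [ChevalleyDatum.stWord, List.map_cons, List.prod_cons, map_mul, ← ChevalleyDatum.stWord,
      E.lift_stX F (hw p List.mem_cons_self), ih fun q hq => hw q (List.mem_cons_of_mem _ hq)]
    rfl

include S in
theorem lift_rels : ∀ g ∈ D.steinbergRels F, FreeGroup.lift (E.gen (S' := S') F) g = 1 := by
  rintro g ((⟨r, t₁, t₂, hr, rfl⟩ | ⟨r, s, t, u, hr, hs, h1, h2, rfl⟩) |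
    ⟨r, t₁, t₂, hr, h1, h2, rfl⟩)
  · simp only [map_mul, map_inv, E.lift_stX F hr, S'.xG_add, mul_inv_cancel]
  · have hw : ∀ p ∈ D.commWord F r s t u, p.1 < D.nroots := by
      intro p hp
      obtain ⟨c, hc, rfl⟩ := List.mem_map.1 hp
      exact S.commTerms_lt hr hs hc
    simp only [map_mul, map_inv, E.lift_stX F hr, E.lift_stX F hs, E.lift_stWord F _ hw]
    rw [mul_inv_eq_one]
    have e := S'.xG_comm F (E.lt r hr) (E.lt s hs) (fun e => h1 (E.inj s hs r hr e))
      (fun e => h2 (E.inj s hs _ (S.wf.neg_lt r hr) (by rw [← E.neg r hr]; exact e))) t u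
    have ew : D'.commWord F (E.ι r) (E.ι s) t u =
        (D.commWord F r s t u).map fun p => (E.ι p.1, p.2) := by
      simp only [ChevalleyDatum.commWord, E.comm r hr s hs h1 h2, List.map_map]
      rfl
    rw [ew] at e
    calc (S'.xG F (E.ι s) u)⁻¹ * (S'.xG F (E.ι r) t)⁻¹ * S'.xG F (E.ι s) u * S'.xG F (E.ι r) t
        = (S'.xG F (E.ι s) u)⁻¹ *
          ((S'.xG F (E.ι r) t)⁻¹ * S'.xG F (E.ι s) u * S'.xG F (E.ι r) t) := by group
      _ = _ := by rw [e, inv_mul_cancel_left]
  · have hw : ∀ c : F, ∀ p ∈ D.hWord r c, p.1 < D.nroots := by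
      intro c p hp
      simp only [ChevalleyDatum.hWord, ChevalleyDatum.nWord, List.cons_append, List.nil_append,
        List.mem_cons, List.not_mem_nil, or_false] at hp
      rcases hp with rfl | rfl | rfl | rfl | rfl | rfl <;>
        first
          | exact hr
          | exact S.wf.neg_lt r hr
    have hm : ∀ c : F, (D.hWord r c).map (fun p => (E.ι p.1, p.2)) = D'.hWord (E.ι r) c := by
      intro c
      simp [ChevalleyDatum.hWord, ChevalleyDatum.nWord, E.neg r hr]
    simp only [map_mul, map_inv, ChevalleyDatum.stH, E.lift_stWord F _ (hw _), hm]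
    rw [mul_inv_eq_one]
    apply Units.ext
    simp only [Units.val_mul, S'.wG_val]
    show D'.hMat F _ t₁ * D'.hMat F _ t₂ = D'.hMat F _ (t₁ * t₂)
    rw [S'.hMat_root F (E.lt r hr) h1, S'.hMat_root F (E.lt r hr) h2,
      S'.hMat_root F (E.lt r hr) (mul_ne_zero h1 h2), dg_mul]
    exact dg_congr fun s _ => (mul_zpow _ _ _).symm

include S in
/-- The homomorphism from the presented group to the bigger Chevalley group. -/
theorem exists_hom : ∃ φ : D.SteinbergGroup F →* GL D'.Idx F,
    ∀ r < D.nroots, ∀ t, φ (D.stGen F r t) = S'.xG F (E.ι r) t :=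
  ⟨PresentedGroup.toGroup (E.lift_rels (S := S) (S' := S') F), fun r hr t =>
    E.lift_stX (S' := S') F hr t⟩

end Emb

end CfsgLib.ChevUniversal
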