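import Mathlib
import Cfsg.Agent.ChevUniversal.Lifts
import Cfsg.Agent.ChevUniversal.Emb
import Cfsg.Agent.SteinbergSL.PSL
import Cfsg.Prelude.Def_KGroupFacts

/-!
Schur multipliers of simply laced Chevalley groups over finite fields: the kernel of a stem
extension is an image of the kernel of the adjoint torus map, and the presented group is a stem
extension realising it as soon as the system embeds suitably.
-/

set_option autoImplicit false

namespace CfsgLib.ChevUniversal

open Cfsg.Lie CfsgLib.Chevalley CfsgLib.ChevSteinberg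

universe u

variable {D : ChevalleyDatum} {S : Sys D} {F : Type*} [Field F]

/-- The kernel of a stem extension is an image of the kernel of the adjoint torus map. -/
theorem stem_ker (P : Simply S) (W : Witness S)
    (hmul : ∀ {Γ : Type u} [Group Γ] (T : StSys S F Γ), T.MulH)
    {Γ : Type u} [Group Γ] {σ : Γ →* ↥(D.group F)} (hσ : Cfsg.IsStemExtension σ) :
    ∃ φ : (Fin D.rank → Fˣ) →* Γ, σ.ker = (StSys.torF D F).ker.map φ := by
  obtain ⟨hsurj, hcen, hcomm⟩ := hσ
  set θ := (D.group F).subtype.comp σ with hθ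
  have hker : θ.ker = σ.ker := by
    ext z
    simp [hθ, MonoidHom.mem_ker]
  have H : Over S θ := ⟨P, hker ▸ hcen, fun r hr t => by
    obtain ⟨g, hg⟩ := hsurj ⟨S.xG F r t, S.xG_mem F hr t⟩
    exact ⟨g, congrArg Subtype.val hg⟩⟩
  obtain ⟨T, hT⟩ := H.exists_stSys
  let K : Subgroup Γ := Subgroup.closure {g | ∃ r < D.nroots, ∃ t, g = T.y r t}
  have hK : K.map σ = ⊤ := by
    rw [eq_top_iff]
    rintro ⟨g, hg⟩ -
    suffices g ∈ (K.map σ).map (D.group F).subtype by
      obtain ⟨p, hp, e⟩ := this
      have e' : p = ⟨g, hg⟩ := Subtype.ext e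
      exact e' ▸ hp
    rw [Subgroup.map_map, ← hθ, ← hT]
    refine (Subgroup.closure_le _).2 ?_ (S.group_eq F ▸ hg)
    rintro _ ⟨r, hr, t, rfl⟩
    exact ⟨T.y r t, Subgroup.subset_closure ⟨r, hr, t, rfl⟩, T.θ_y r t⟩
  have hgen : K = ⊤ := by
    rw [eq_top_iff]
    intro g _
    obtain ⟨k, hk, e⟩ : σ g ∈ K.map σ := hK ▸ Subgroup.mem_top _
    have hz : g * k⁻¹ ∈ K := SteinbergSL.commutator_le_of_map_eq_top hcen hK
      (hcomm (by rw [MonoidHom.mem_ker, map_mul, map_inv, e, mul_inv_cancel]))
    simpa using mul_mem hz hk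
  refine ⟨T.torHom (hmul T) W, ?_⟩
  rw [← T.ker_eq_map (hmul T) W hgen, hT, hker]

/-- The surjection bounding the kernel, when the kernel of the torus map is given by one root
of unity. -/
theorem exists_surjective_zmod [Fintype F] {q : ℕ} (hq : Fintype.card F = q) {d : ℕ}
    (l0 : Fin D.rank) (v : Fin D.rank → ℤ) (hv : v l0 = 1)
    (hker : ∀ c : Fin D.rank → Fˣ, c ∈ (StSys.torF D F).ker ↔
      c l0 ^ d = 1 ∧ ∀ l, c l = c l0 ^ v l) :
    ∃ ψ : Multiplicative (ZMod (Nat.gcd d (q - 1))) →* (Fin D.rank → Fˣ),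
      Function.Injective ψ ∧ ψ.range = (StSys.torF D F).ker := by
  classical
  let M : Subgroup Fˣ := (powMonoidHom d : Fˣ →* Fˣ).ker
  have hcard : Nat.card M = Nat.gcd d (q - 1) := by
    rw [IsCyclic.card_powMonoidHom_ker, Nat.card_units, Nat.card_eq_fintype_card, hq,
      Nat.gcd_comm]
  let e : Multiplicative (ZMod (Nat.gcd d (q - 1))) ≃* M :=
    hcard ▸ zmodCyclicMulEquiv (inferInstance : IsCyclic M)
  let ψ : M →* (Fin D.rank → Fˣ) :=
    MonoidHom.mk' (fun ζ l => (ζ : Fˣ) ^ v l) fun a b => funext fun l => by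
      simp [mul_zpow]
  refine ⟨ψ.comp e.toMonoidHom, ?_, ?_⟩
  · rw [MonoidHom.coe_comp]
    refine Function.Injective.comp (fun a b h => ?_) e.injective
    have h' := congrFun h l0
    simp only [ψ, MonoidHom.mk'_apply, hv, zpow_one] at h'
    exact Subtype.ext h'
  · ext c
    constructor
    · rintro ⟨x, rfl⟩
      rw [hker]
      simp only [MonoidHom.comp_apply, MulEquiv.coe_toMonoidHom, ψ, MonoidHom.mk'_apply, hv,
        zpow_one]
      exact ⟨(e x).2, fun _ => trivial⟩
    · intro hc
      obtain ⟨h1, h2⟩ := (hker c).1 hc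
      obtain ⟨x, hx⟩ := e.surjective ⟨c l0, h1⟩
      refine ⟨x, ?_⟩
      funext l
      simp [ψ, hx, h2 l]

/-- The presented group is perfect. -/
theorem commutator_steinbergGroup (P : Simply S) :
    commutator (D.SteinbergGroup F) = ⊤ := by
  rw [eq_top_iff, ← group_gen S F, Subgroup.closure_le]
  rintro _ ⟨k, hk, t, rfl⟩
  obtain ⟨a, ha, hak, -, -⟩ := (P.pair k hk k hk).split (by rw [P.ip_self hk]; norm_num)
  obtain ⟨b, d⟩ := P.exists_sub hk ha hak
  obtain ⟨C, hc, hC⟩ := P.commTerms_decomp d
  set T := groupSys S F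
  have h1 : b ≠ a := fun e => by
    have := d.ip_eq; rw [e, P.ip_self d.lt_left] at this; omega
  have h2 : b ≠ D.neg a := fun e => by
    have := d.ip_eq; rw [e, P.neg_ip d.lt_left] at this; omega
  have e := T.comm a d.lt_left b d.lt_right h1 h2 (-((C : F) * t)) 1
  have hCC : (C : F) * (C : F) = 1 := by rcases hC with rfl | rfl <;> simp
  simp only [ChevalleyDatum.commWord, hc, List.map_cons, List.map_nil, List.prod_cons,
    List.prod_nil, mul_one, pow_one, neg_neg] at e
  rw [← mul_assoc, hCC, one_mul] at e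
  have e' : T.y k t = (T.y b 1)⁻¹ *
      ((T.y a (-((C : F) * t)))⁻¹ * T.y b 1 * T.y a (-((C : F) * t))) := by
    rw [e, inv_mul_cancel_left]
  rw [SetLike.mem_coe, e', commutator_def]
  have := Subgroup.commutator_mem_commutator (Subgroup.mem_top ((T.y b 1)⁻¹))
    (Subgroup.mem_top ((T.y a (-((C : F) * t)))⁻¹))
  simpa [commutatorElement_def, mul_assoc] using this

/-- The kernel of the projection of the presented group. -/
theorem groupProj_ker_eq_map (W : Witness S) : (groupProj S F).ker =
    (StSys.torF D F).ker.map ((groupSys S F).torHom (groupSys_mulH S F) W) := by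
  rw [← (groupSys S F).ker_eq_map (groupSys_mulH S F) W (group_gen S F)]
  ext z
  simp [groupSys, MonoidHom.mem_ker]

/-- The presented group is a stem extension. -/
theorem groupProj_stem (P : Simply S) (W : Witness S) :
    Cfsg.IsStemExtension (groupProj S F) :=
  ⟨groupProj_surjective S F, (groupProj_ker S F W).le,
    by rw [commutator_steinbergGroup P]; exact le_top⟩

theorem finite_steinbergGroup [Finite F] (W : Witness S) : Finite (D.SteinbergGroup F) := by
  have h1 : Finite (groupProj S F).ker := by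
    rw [groupProj_ker_eq_map W]
    exact Finite.of_surjective
      (MonoidHom.subgroupMap ((groupSys S F).torHom (groupSys_mulH S F) W) (StSys.torF D F).ker)
      (MonoidHom.subgroupMap_surjective _ _)
  have h2 : Finite (D.SteinbergGroup F ⧸ (groupProj S F).ker) :=
    Finite.of_equiv _ (QuotientGroup.quotientKerEquivOfSurjective _
      (groupProj_surjective S F)).toEquiv.symm
  exact Finite.of_equiv _
    (Subgroup.groupEquivQuotientProdSubgroup (s := (groupProj S F).ker)).symm

/-- The torus of a subdiagram inside the bigger one. -/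
noncomputable def extNodes (D D' : ChevalleyDatum) (F : Type*) [Field F] :
    (Fin D.rank → Fˣ) →* (Fin D'.rank → Fˣ) where
  toFun c k := if h : (k : ℕ) < D.rank then c ⟨k, h⟩ else 1
  map_one' := by funext k; by_cases h : (k : ℕ) < D.rank <;> simp [h]
  map_mul' a b := by funext k; by_cases h : (k : ℕ) < D.rank <;> simp [h]

theorem extNodes_mulSingle {D' : ChevalleyDatum} (h : D.rank ≤ D'.rank) (i : Fin D.rank) (a : Fˣ) :
    extNodes D D' F (Pi.mulSingle i a) = Pi.mulSingle (Fin.castLE h i) a := by
  funext k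
  show (if hk : (k : ℕ) < D.rank then (Pi.mulSingle i a : Fin D.rank → Fˣ) ⟨k, hk⟩ else 1) = _
  by_cases e : k = Fin.castLE h i
  · subst e
    simp
  · rw [Pi.mulSingle_eq_of_ne e]
    split_ifs with hk
    · exact Pi.mulSingle_eq_of_ne (fun e' => e (by rw [← e']; exact Fin.ext rfl)) _
    · rfl

/-- Through an embedding the torus map of the presented group is injective on the kernel. -/
theorem torHom_injOn {D' : ChevalleyDatum} {S' : Sys D'} (E : Emb (D := D) (D' := D'))
    (W : Witness S)
    (h : ∀ c ∈ (StSys.torF D' F).ker, (∀ k : Fin D'.rank, D.rank ≤ (k : ℕ) → c k = 1) → c = 1) :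
    Function.Injective ((groupSys S F).torHom (groupSys_mulH S F) W) := by
  obtain ⟨φ, hφ⟩ := E.exists_hom (S := S) (S' := S') F
  set T := groupSys S F
  set T' := groupSys S' F
  have key : φ.comp (T.torHom (groupSys_mulH S F) W) =
      (StSys.torF D' F).comp (extNodes D D' F) := by
    refine MonoidHom.pi_ext fun i a => ?_
    rw [MonoidHom.comp_apply, MonoidHom.comp_apply, T.torHom_mulSingle,
      extNodes_mulSingle E.rank_le, StSys.torF, MonoidHom.comp_apply, extendOne_mulSingle]
    have e := T'.θ_hT (Fin.castLE E.rank_le i) a.ne_zero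
    rw [Units.mk0_val, Fin.val_castLE, ← E.simple i i.isLt] at e
    refine Eq.trans ?_ e
    have hl := S.wf.simple_lt i i.isLt
    have hy : ∀ r < D.nroots, ∀ t, φ (T.y r t) = S'.xG F (E.ι r) t := hφ
    simp only [StSys.hT, StSys.nT, map_mul, hy _ hl, hy _ (S.wf.neg_lt _ hl), T'.θ_y,
      E.neg _ hl]
  intro c c' e
  rw [← div_eq_one] at e ⊢
  rw [← map_div] at e
  generalize c / c' = x at e ⊢
  have hx : extNodes D D' F x ∈ (StSys.torF D' F).ker := by
    have := DFunLike.congr_fun key x
    rw [MonoidHom.comp_apply, e, map_one] at this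
    exact this.symm
  have h1 := h _ hx fun k hk => dif_neg (not_lt.2 hk)
  funext i
  have := congrFun h1 (Fin.castLE E.rank_le i)
  rwa [show extNodes D D' F x (Fin.castLE E.rank_le i) = x i from dif_pos i.isLt] at this

end CfsgLib.ChevUniversal
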