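import Cfsg.Agent.ChevUniversal.MultE

/-! The centres of the presented groups of types E6 and E7. -/

set_option autoImplicit false

namespace CfsgLib.ChevUniversal

open Cfsg.Lie CfsgLib.Chevalley CfsgLib.ChevSteinberg

universe u

variable {D : ChevalleyDatum} {S : Sys D} {F : Type u} [Field F]

/-- The order of the centre from an injective torus map. -/
theorem card_center_of [Fintype F] {q : ℕ} (hq : Fintype.card F = q) (W : Witness S) {d : ℕ}
    (hd : 0 < d) (l0 : Fin D.rank) (v : Fin D.rank → ℤ) (hv : v l0 = 1)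
    (hker : ∀ c : Fin D.rank → Fˣ, c ∈ (StSys.torF D F).ker ↔
      c l0 ^ d = 1 ∧ ∀ l, c l = c l0 ^ v l)
    (hinj : Function.Injective ((groupSys S F).torHom (groupSys_mulH S F) W)) :
    Nat.card (Subgroup.center (D.SteinbergGroup F)) = Nat.gcd d (q - 1) := by
  haveI : NeZero (Nat.gcd d (q - 1)) := ⟨Nat.gcd_ne_zero_left hd.ne'⟩
  obtain ⟨ψ, hψ, hrange⟩ := exists_surjective_zmod hq l0 v hv hker
  rw [← groupProj_ker S F W, groupProj_ker_eq_map W, Subgroup.card_map_of_injective hinj,
    ← hrange, ← Nat.card_congr (MonoidHom.ofInjective hψ).toEquiv,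
    Nat.card_congr Multiplicative.toAdd, Nat.card_zmod]

theorem card_center_E6_E7 [Fintype F] {q : ℕ} (hq : Fintype.card F = q)
    (p : ChevalleyDatum × ℕ) (hp : p ∈ [(chevE6, 3), (chevE7, 2)]) :
    Nat.card (Subgroup.center (p.1.SteinbergGroup F)) = Nat.gcd p.2 (q - 1) := by
  simp only [List.mem_cons, List.not_mem_nil, or_false] at hp
  rcases hp with rfl | rfl
  · refine card_center_of hq witness_E6 (by norm_num) _ _ (by decide) ker_torF_E6
      (torHom_injOn (S' := sysE7) embE6 witness_E6 fun c hc h => ?_)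
    obtain ⟨-, h2⟩ := (ker_torF_E7 c).1 hc
    have h6 := h2 ⟨6, by decide⟩
    rw [h ⟨6, by decide⟩ (by decide)] at h6
    have h1 : c ⟨1, by decide⟩ = 1 := by simpa using h6.symm
    funext l
    rw [h2 l, h1, one_zpow, Pi.one_apply]
  · exact card_center_of hq witness_E7 (by norm_num) _ _ (by decide) ker_torF_E7
      (torHom_injOn (S' := sysE8) embE7 witness_E7 fun c hc _ => by
        rwa [ker_torF_E8, Subgroup.mem_bot] at hc)

end CfsgLib.ChevUniversal
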