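import Cfsg.Agent.ChevUniversal.DataE
import Cfsg.Agent.SchurMult.Multiplier

/-! The Schur multipliers of E6, E7 and E8 over finite fields. -/

set_option autoImplicit false

namespace CfsgLib.ChevUniversal

open Cfsg.Lie CfsgLib.Chevalley CfsgLib.ChevSteinberg

universe u

variable {D : ChevalleyDatum} {S : Sys D} {F : Type u} [Field F]

/-- A cyclic multiplier from the universal bound and an injective torus map. -/
theorem hasCyclicSchurMultiplier_of [Fintype F] {q : ℕ} (hq : Fintype.card F = q) {nb : List ℕ}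
    (P : Simply S) (W : Witness S) (h2 : chkAllA2 D S.vec nb = true) {d : ℕ} (l0 : Fin D.rank)
    (v : Fin D.rank → ℤ) (hv : v l0 = 1)
    (hker : ∀ c : Fin D.rank → Fˣ, c ∈ (StSys.torF D F).ker ↔
      c l0 ^ d = 1 ∧ ∀ l, c l = c l0 ^ v l)
    (hinj : Function.Injective ((groupSys S F).torHom (groupSys_mulH S F) W)) :
    Cfsg.HasCyclicSchurMultiplier ↥(D.group F) (Nat.gcd d (q - 1)) := by
  obtain ⟨ψ, hψ, hrange⟩ := exists_surjective_zmod hq l0 v hv hker
  refine ⟨⟨D.SteinbergGroup F, inferInstance, finite_steinbergGroup W, groupProj S F,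
    groupProj_stem P W, ⟨?_⟩⟩, fun Γ _ _ σ hσ => ?_⟩
  · have e : (((groupSys S F).torHom (groupSys_mulH S F) W).comp ψ).range =
        (groupProj S F).ker := by
      rw [MonoidHom.range_comp, hrange, groupProj_ker_eq_map W]
    have hi : Function.Injective
        (((groupSys S F).torHom (groupSys_mulH S F) W).comp ψ) := by
      rw [MonoidHom.coe_comp]
      exact hinj.comp hψ
    exact (MulEquiv.subgroupCongr e).symm.trans (MonoidHom.ofInjective hi).symm
  · obtain ⟨φ, hφ⟩ := stem_ker P W (fun T => mulH_of_chk P T h2) hσ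
    have e : (φ.comp ψ).range = σ.ker := by rw [MonoidHom.range_comp, hrange, hφ]
    exact ⟨(φ.comp ψ).codRestrict _ fun x => e ▸ ⟨x, rfl⟩, fun y => by
      obtain ⟨x, hx⟩ : (y : Γ) ∈ (φ.comp ψ).range := by rw [e]; exact y.2
      exact ⟨x, Subtype.ext hx⟩⟩

theorem e6_multiplier [Fintype F] {q : ℕ} (hq : Fintype.card F = q) :
    Cfsg.HasCyclicSchurMultiplier ↥(chevE6.group F) (Nat.gcd 3 (q - 1)) := by
  refine hasCyclicSchurMultiplier_of hq simply_E6 witness_E6 chkAllA2_E6 _ _ (by decide)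
    ker_torF_E6 (torHom_injOn (S' := sysE7) embE6 witness_E6 fun c hc h => ?_)
  obtain ⟨-, h2⟩ := (ker_torF_E7 c).1 hc
  have h6 := h2 ⟨6, by decide⟩
  rw [h ⟨6, by decide⟩ (by decide)] at h6
  have h1 : c ⟨1, by decide⟩ = 1 := by simpa using h6.symm
  funext l
  rw [h2 l, h1, one_zpow, Pi.one_apply]

theorem e7_multiplier [Fintype F] {q : ℕ} (hq : Fintype.card F = q) :
    Cfsg.HasCyclicSchurMultiplier ↥(chevE7.group F) (Nat.gcd 2 (q - 1)) :=
  hasCyclicSchurMultiplier_of hq simply_E7 witness_E7 chkAllA2_E7 _ _ (by decide)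
    ker_torF_E7 (torHom_injOn (S' := sysE8) embE7 witness_E7 fun c hc _ => by
      rwa [ker_torF_E8, Subgroup.mem_bot] at hc)

theorem e8_multiplier [Fintype F] : Cfsg.HasCyclicSchurMultiplier ↥(chevE8.group F) 1 := by
  rw [SchurMult.hasCyclicSchurMultiplier_one_iff]
  intro Γ _ _ σ hσ
  obtain ⟨φ, hφ⟩ := stem_ker simply_E8 witness_E8 (fun T => mulH_of_chk simply_E8 T chkAllA2_E8) hσ
  rw [hφ, ker_torF_E8, Subgroup.map_bot]

end CfsgLib.ChevUniversal
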