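import Mathlib
import Cfsg.Agent.ChevUniversal.Lifts
import Cfsg.Agent.ChevSteinberg.TorusHom
import Cfsg.Agent.SteinbergSL.Symbol

/-!
In a group with Steinberg's relations of a simply laced system over a finite field the maps
`t ↦ h_p(t)` are multiplicative: every fundamental root lies in a subsystem of type `A₂`.
-/

set_option autoImplicit false

namespace CfsgLib.ChevUniversal

open Cfsg.Lie CfsgLib.Chevalley CfsgLib.ChevSteinberg CfsgLib.SteinbergSL

variable (D : ChevalleyDatum)

/-- The roots of the subsystem spanned by two fundamental roots. -/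
def a2Root (i j : ℕ) (p q : Fin 3) : ℕ :=
  let a := D.simple i
  let b := D.simple j
  let k := ((D.commTerms a b).headD (0, 0, 0, 0)).1
  match (p : ℕ), (q : ℕ) with
  | 0, 1 => a
  | 1, 0 => D.neg a
  | 1, 2 => b
  | 2, 1 => D.neg b
  | 0, 2 => k
  | 2, 0 => D.neg k
  | _, _ => 0

/-- The signs of the subsystem spanned by two fundamental roots. -/
def a2Sign (i j : ℕ) (p q : Fin 3) : ℤ :=
  match (p : ℕ), (q : ℕ) with
  | 0, 2 => ((D.commTerms (D.simple i) (D.simple j)).headD (0, 0, 0, 0)).2.1
  | 2, 0 => ((D.commTerms (D.neg (D.simple j)) (D.neg (D.simple i))).headD (0, 0, 0, 0)).2.1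
  | _, _ => 1

/-- Check of the subsystem. -/
def chkA2 (V : ℕ → ℕ → ℤ) (i j : ℕ) : Bool :=
  ((List.finRange 3).all fun p => (List.finRange 3).all fun q => decide (p = q) ||
    decide (a2Root D i j p q < D.nroots) &&
      decide (a2Sign D i j p q = 1 ∨ a2Sign D i j p q = -1)) &&
  ((List.finRange 3).all fun p => (List.finRange 3).all fun q => (List.finRange 3).all fun r =>
    decide (p = q) || decide (q = r) || decide (p = r) ||
      match D.commTerms (a2Root D i j p q) (a2Root D i j q r) with
      | [(k, C, 1, 1)] => decide (k = a2Root D i j p r) &&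
          decide (C * a2Sign D i j p q * a2Sign D i j q r = a2Sign D i j p r) &&
          decide (ipV D V (a2Root D i j p q) (a2Root D i j q r) = -1)
      | _ => false) &&
  (List.finRange 3).all fun p => (List.finRange 3).all fun q => (List.finRange 3).all fun r =>
    (List.finRange 3).all fun s => decide (p = q) || decide (r = s) || decide (q = r) ||
      decide (p = s) || decide (0 ≤ ipV D V (a2Root D i j p q) (a2Root D i j r s))

/-- Check that every fundamental root has a neighbour spanning a subsystem of type `A₂`. -/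
def chkAllA2 (V : ℕ → ℕ → ℤ) (nb : List ℕ) : Bool :=
  (List.range D.rank).all fun i => chkA2 D V i (nb.getD i 0)

variable {D}
variable {S : Sys D} (P : Simply S) {F : Type*} [Field F] {G : Type*} [Group G] (T : StSys S F G)
include P

theorem mulH_of_chk [Finite F] {nb : List ℕ} (h : chkAllA2 D S.vec nb = true) : T.MulH := by
  intro i t u ht hu
  simp only [chkAllA2, List.all_eq_true, List.mem_range] at h
  have hi := h i i.isLt
  generalize nb.getD i 0 = j at hi
  simp only [chkA2, Bool.and_eq_true, Bool.or_eq_true, List.all_eq_true, decide_eq_true_eq] at hi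
  obtain ⟨⟨hb, hc⟩, hcm⟩ := hi
  let x : Fin 3 → Fin 3 → F → G := fun p q c =>
    T.y (a2Root D i j p q) ((a2Sign D i j p q : F) * c)
  let H : Subgroup G := Subgroup.closure {g | ∃ p q, p ≠ q ∧ ∃ c, g = x p q c}
  have mem : ∀ p q, p ≠ q → ∀ c, x p q c ∈ H := fun p q h c =>
    Subgroup.subset_closure ⟨p, q, h, c, rfl⟩
  let X : Fin 3 → Fin 3 → F → H := fun p q c =>
    if h : p ≠ q then ⟨x p q c, mem p q h c⟩ else 1
  have hX : ∀ {p q}, p ≠ q → ∀ c, (X p q c : G) = x p q c := fun h c => by simp [X, h]
  have hlt : ∀ {p q : Fin 3}, p ≠ q → a2Root D i j p q < D.nroots := fun {p q} h =>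
    ((hb p (List.mem_finRange p) q (List.mem_finRange q)).resolve_left h).1
  have hcomm : ∀ {p q r s : Fin 3}, p ≠ q → r ≠ s → q ≠ r → p ≠ s → ∀ a b : F,
      x p q a * x r s b = x r s b * x p q a := by
    intro p q r s h1 h2 h3 h4 a b
    have hip : 0 ≤ ip S (a2Root D i j p q) (a2Root D i j r s) := by
      rcases hcm p (List.mem_finRange p) q (List.mem_finRange q) r (List.mem_finRange r) s
        (List.mem_finRange s) with (((h | h) | h) | h) | h
      · exact absurd h h1
      · exact absurd h h2
      · exact absurd h h3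
      · exact absurd h h4
      · exact h
    by_cases e : a2Root D i j r s = a2Root D i j p q
    · show T.y _ _ * T.y _ _ = T.y _ _ * T.y _ _
      rw [e, T.add, T.add, add_comm]
    · have hn : a2Root D i j r s ≠ D.neg (a2Root D i j p q) := fun e' => by
        rw [e', P.neg_ip (hlt h1)] at hip; omega
      have := T.comm _ (hlt h1) _ (hlt h2) e hn ((a2Sign D i j p q : F) * a)
        ((a2Sign D i j r s : F) * b)
      simp only [ChevalleyDatum.commWord, (P.pair _ (hlt h1) _ (hlt h2)).comm hip e, List.map_nil,
        List.prod_nil, mul_one] at this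
      rw [mul_assoc, inv_mul_eq_iff_eq_mul] at this
      exact this.symm
  have hchev : ∀ {p q r : Fin 3}, p ≠ q → q ≠ r → p ≠ r → ∀ a b : F,
      x p q a * x q r b * (x p q a)⁻¹ * (x q r b)⁻¹ = x p r (a * b) := by
    intro p q r h1 h2 h3 a b
    rcases hc p (List.mem_finRange p) q (List.mem_finRange q) r (List.mem_finRange r) with
      ((h | h) | h) | h
    · exact absurd h h1
    · exact absurd h h2
    · exact absurd h h3
    · split at h
      · rename_i k C hT
        simp only [Bool.and_eq_true, decide_eq_true_eq] at h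
        obtain ⟨⟨rfl, hC⟩, hip⟩ := h
        have hne : a2Root D i j q r ≠ a2Root D i j p q := fun e => by
          rw [e] at hip
          have : ip S (a2Root D i j p q) (a2Root D i j p q) = -1 := hip
          rw [P.ip_self (hlt h1)] at this
          omega
        have hn : a2Root D i j q r ≠ D.neg (a2Root D i j p q) := fun e => by
          have : ip S (a2Root D i j p q) (a2Root D i j q r) = -1 := hip
          rw [e, P.neg_ip (hlt h1)] at this
          omega
        have e := T.comm _ (hlt h1) _ (hlt h2) hne hn (-((a2Sign D i j p q : F) * a))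
          ((a2Sign D i j q r : F) * b)
        simp only [ChevalleyDatum.commWord, hT, List.map_cons, List.map_nil, List.prod_cons,
          List.prod_nil, mul_one, pow_one, neg_neg, ← T.y_inv, inv_inv] at e
        have hcast : (C : F) * ((a2Sign D i j p q : F) * a) * ((a2Sign D i j q r : F) * b) =
            (a2Sign D i j p r : F) * (a * b) := by
          rw [← hC]; push_cast; ring
        rw [hcast] at e
        show T.y _ _ * T.y _ _ * (T.y _ _)⁻¹ * (T.y _ _)⁻¹ = x p r (a * b)
        rw [e]
        have hc2 : x q r b * x p r (a * b) = x p r (a * b) * x q r b :=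
          hcomm h2 h3 h3.symm h2 b _
        show x q r b * x p r (a * b) * (x q r b)⁻¹ = x p r (a * b)
        rw [hc2, mul_inv_cancel_right]
      · simp at h
  let R : RootSys (Fin 3) F H :=
    { x := X
      add := fun {p q} h a b => Subtype.ext (by
        rw [Subgroup.coe_mul, hX h, hX h, hX h]
        show T.y _ _ * T.y _ _ = T.y _ _
        rw [T.add, mul_add])
      comm := fun {p q r s} h1 h2 h3 h4 a b => Subtype.ext (by
        rw [Subgroup.coe_mul, Subgroup.coe_mul, hX h1, hX h2, hcomm h1 h2 h3 h4])
      chev := fun {p q r} h1 h2 h3 a b => Subtype.ext (by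
        rw [Subgroup.coe_mul, Subgroup.coe_mul, Subgroup.coe_mul, Subgroup.coe_inv, Subgroup.coe_inv,
          hX h1, hX h2, hX h3, hchev h1 h2 h3])
      gen := fun K hK => by
        rw [eq_top_iff]
        intro g _
        have : (g : G) ∈ K.map H.subtype := (Subgroup.closure_le _).2 (by
          rintro _ ⟨p, q, hpq, c, rfl⟩
          exact ⟨X p q c, hK p q hpq c, hX hpq c⟩) g.2
        obtain ⟨g', hg', e⟩ := this
        rwa [← Subtype.ext e] }
  have h01 : (0 : Fin 3) ≠ 1 := by decide
  have hh : ∀ c : F, ((R.h 0 1 c : H) : G) = T.hT (D.simple i) c := by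
    intro c
    have hw : ∀ d : F, ((R.w 0 1 d : H) : G) = T.nT (D.simple i) d := by
      intro d
      show ((X 0 1 d * X 1 0 (-d⁻¹) * X 0 1 d : H) : G) = _
      rw [Subgroup.coe_mul, Subgroup.coe_mul, hX h01, hX h01.symm]
      simp [x, a2Root, a2Sign, StSys.nT]
    show ((R.w 0 1 c * R.w 0 1 (-1) : H) : G) = _
    rw [Subgroup.coe_mul, hw, hw]
    rfl
  have := congrArg Subtype.val (R.h_mul (by simp) h01 ht hu)
  rw [Subgroup.coe_mul, hh, hh, hh] at this
  exact this

end CfsgLib.ChevUniversal
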